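import Mathlib

set_option autoImplicit false

namespace Cfsg.Agent.Lib.Helper63.H572

open Equiv Equiv.Perm MulAction

theorem cnt_card {G Ω : Type*} [Group G] [MulAction G Ω] [Finite G] [Finite Ω] {t : ℕ}
    (hG : IsMultiplyPretransitive G Ω t) (x : Fin t ↪ Ω) :
    (Nat.card Ω).descFactorial t * Nat.card (stabilizer G x) = Nat.card G := by
  classical
  have := Fintype.ofFinite Ω
  have := Fintype.ofFinite G
  have h1 := MulAction.card_orbit_mul_card_stabilizer_eq_card_group G x
  simp only [← Nat.card_eq_fintype_card] at h1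
  have h2 : orbit G x = Set.univ := by
    ext y
    simp only [Set.mem_univ, iff_true]
    obtain ⟨g, hg⟩ := hG.exists_smul_eq x y
    exact ⟨g, hg⟩
  have h3 : Nat.card (orbit G x) = (Nat.card Ω).descFactorial t := by
    rw [h2, Nat.card_coe_set_eq, Set.ncard_univ, Nat.card_eq_fintype_card,
      Fintype.card_embedding_eq, Fintype.card_fin, Nat.card_eq_fintype_card]
  rw [h3] at h1
  exact h1

theorem card_stab_succ {α : Type*} [Fintype α] [DecidableEq α] (G : Subgroup (Perm α)) {r : ℕ}
    (hG : IsMultiplyPretransitive G α (r + 1)) (hr : r + 1 ≤ Fintype.card α)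
    (e : Fin r ↪ α) (e' : Fin (r + 1) ↪ α) :
    Nat.card (stabilizer G e) = (Fintype.card α - r) * Nat.card (stabilizer G e') := by
  have hGr : IsMultiplyPretransitive G α r :=
    isMultiplyPretransitive_of_le (n := r + 1) (by omega)
      (by rw [Nat.card_eq_fintype_card]; exact_mod_cast hr)
  have h1 := cnt_card hGr e
  have h2 := cnt_card hG e'
  rw [Nat.card_eq_fintype_card] at h1 h2
  rw [Nat.descFactorial_succ] at h2
  have hpos : 0 < (Fintype.card α).descFactorial r := Nat.descFactorial_pos.2 (by omega)
  have h1' : (Fintype.card α).descFactorial r * Nat.card (stabilizer G e) = Nat.card G := h1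
  have h2' : (Fintype.card α - r) * (Fintype.card α).descFactorial r *
      Nat.card (stabilizer G e') = Nat.card G := h2
  apply Nat.eq_of_mul_eq_mul_left hpos
  rw [h1', ← h2']
  ring

end Cfsg.Agent.Lib.Helper63.H572
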