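import Mathlib
import Cfsg.Agent.S4219
import Cfsg.Agent.Lib.Helper63.H572.CNT

set_option autoImplicit false

namespace Cfsg.Agent.Lib.Helper63.H572

open Equiv Equiv.Perm MulAction

theorem caseA1 {α : Type*} [Fintype α] [DecidableEq α] (G : Subgroup (Perm α)) {k p r : ℕ}
    (hp : p.Prime) (hα : Fintype.card α = k * p + r) (hk : 1 ≤ k) (hkp : k < p)
    (hG : IsMultiplyPretransitive G α (r + 1))
    (hA : ∀ e' : Fin (r + 1) ↪ α, ¬ p ∣ Nat.card (stabilizer G e')) (e : Fin r ↪ α) :
    ∃ z ∈ G, orderOf z = p ∧ (∀ x, z x = x ↔ x ∈ Set.range e) ∧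
      ∀ σ : Perm (Fin r), ∃ g ∈ G, g * z * g⁻¹ ∈ Subgroup.zpowers z ∧ ∀ i, g (e i) = e (σ i) := by
  classical
  have := Fact.mk hp
  have hkp0 : 0 < k * p := Nat.mul_pos hk hp.pos
  have hn : r + 1 ≤ Fintype.card α := by rw [hα]; omega
  obtain ⟨x0, hx0⟩ : ∃ x0, x0 ∉ Set.range e := by
    by_contra hcon
    push Not at hcon
    have h1 := Fintype.card_le_of_surjective e hcon
    rw [Fintype.card_fin] at h1
    omega
  have hcnt := card_stab_succ G hG hn e (Fin.Embedding.snoc e hx0)
  have hnr : Fintype.card α - r = k * p := by omega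
  rw [hnr] at hcnt
  let P : Sylow p (stabilizer G e) := default
  have hPcard : Nat.card P = p := by
    rw [P.card_eq_multiplicity, hcnt]
    have hk0 : k ≠ 0 := by omega
    have hm0 : Nat.card (stabilizer G (Fin.Embedding.snoc e hx0)) ≠ 0 := Nat.card_pos.ne'
    rw [Nat.factorization_mul (Nat.mul_ne_zero hk0 hp.ne_zero) hm0,
      Nat.factorization_mul hk0 hp.ne_zero]
    have h1 : k.factorization p = 0 :=
      Nat.factorization_eq_zero_of_not_dvd (fun h => by have := Nat.le_of_dvd (by omega) h; omega)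
    have h2 : (Nat.card (stabilizer G (Fin.Embedding.snoc e hx0))).factorization p = 0 :=
      Nat.factorization_eq_zero_of_not_dvd (hA _)
    simp only [Finsupp.coe_add, Pi.add_apply]
    rw [h1, h2, hp.factorization_self]
    simp
  have hnt : Nontrivial P := by
    rw [← Finite.one_lt_card_iff_nontrivial, hPcard]
    exact hp.one_lt
  obtain ⟨z0, hz0⟩ := exists_ne (1 : P)
  have hz0ord : orderOf z0 = p := by
    apply orderOf_eq_prime _ hz0
    have h1 : z0 ^ Nat.card P = 1 := pow_card_eq_one'
    rwa [hPcard] at h1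
  have hstab : ∀ (h : stabilizer G e) (i : Fin r), ((h : G) : Perm α) (e i) = e i := by
    intro h i
    have h2 := congrArg (fun f : Fin r ↪ α => f i) (mem_stabilizer_iff.mp h.2)
    exact h2
  refine ⟨(((z0 : stabilizer G e) : G) : Perm α), ((z0 : stabilizer G e) : G).2, ?_, ?_, ?_⟩
  · rw [Subgroup.orderOf_coe, Subgroup.orderOf_coe, Subgroup.orderOf_coe, hz0ord]
  · intro x
    constructor
    · intro hx
      by_contra hxr
      apply hA (Fin.Embedding.snoc e hxr)
      have hmem : ((z0 : stabilizer G e) : G) ∈ stabilizer G (Fin.Embedding.snoc e hxr) := by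
        rw [mem_stabilizer_iff]
        ext i
        show (((z0 : stabilizer G e) : G) : Perm α) (Fin.Embedding.snoc e hxr i) = _
        refine Fin.lastCases ?_ (fun j => ?_) i
        · rw [Fin.Embedding.snoc_last]
          exact hx
        · rw [Fin.Embedding.snoc_castSucc]
          exact hstab _ j
      have h1 : orderOf (⟨((z0 : stabilizer G e) : G), hmem⟩ :
          stabilizer G (Fin.Embedding.snoc e hxr)) = p := by
        rw [← Subgroup.orderOf_coe]
        show orderOf ((z0 : stabilizer G e) : G) = p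
        rw [Subgroup.orderOf_coe, Subgroup.orderOf_coe, hz0ord]
      rw [← h1]
      exact orderOf_dvd_natCard _
    · rintro ⟨i, rfl⟩
      exact hstab _ i
  · intro σ
    have hGr : IsMultiplyPretransitive G α r := by
      have := hG
      exact isMultiplyPretransitive_of_le (n := r + 1) (by omega)
        (by rw [Nat.card_eq_fintype_card]; exact hn)
    have hfix : ∀ (b : Fin r ↪ α), (∀ i, b i ∈ Set.range e) → ∀ i, b i ∈ fixedPoints
        ((P : Subgroup (stabilizer G e)).map (stabilizer G e).subtype) α := by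
      intro b hb i
      rw [mem_fixedPoints]
      rintro ⟨g, hg⟩
      obtain ⟨h, hh, rfl⟩ := hg
      obtain ⟨j, hj⟩ := hb i
      rw [← hj]
      exact hstab h j
    obtain ⟨g, hgN, hg⟩ := Cfsg.Agent.S4219.result hGr e P e (σ.toEmbedding.trans e)
      (hfix e (fun i => ⟨i, rfl⟩)) (hfix _ (fun i => ⟨σ i, rfl⟩))
    refine ⟨g, g.2, ?_, ?_⟩
    · have hzmem : ((z0 : stabilizer G e) : G) ∈
          (P : Subgroup (stabilizer G e)).map (stabilizer G e).subtype := ⟨z0, z0.2, rfl⟩
      have h1 := (Subgroup.mem_normalizer_iff.mp hgN _).mp hzmem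
      obtain ⟨y, hy, hyeq⟩ := h1
      have h2 : (⟨y, hy⟩ : P) ∈ Subgroup.zpowers z0 := mem_zpowers_of_prime_card hPcard hz0
      obtain ⟨n, hn⟩ := Subgroup.mem_zpowers_iff.mp h2
      refine Subgroup.mem_zpowers_iff.mpr ⟨n, ?_⟩
      have h3 := congrArg (fun w : P => (((w : stabilizer G e) : G) : Perm α)) hn
      have h4 := congrArg (fun w : G => (w : Perm α)) hyeq
      have h3' : (((z0 : stabilizer G e) : G) : Perm α) ^ n = ((y : G) : Perm α) := h3
      rw [h3']
      exact h4
    · intro i
      have h5 := congrArg (fun f : Fin r ↪ α => f i) hg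
      exact h5

end Cfsg.Agent.Lib.Helper63.H572
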