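import Mathlib

set_option autoImplicit false

namespace Cfsg.Agent.Lib.Helper63.H572

open Equiv Equiv.Perm MulAction

theorem CA2_inv {α : Type*} {r : ℕ} (e : Fin r ↪ α) (g : Perm α) (σ : Perm (Fin r))
    (h : ∀ i, g (e i) = e (σ i)) : ∀ i, g⁻¹ (e i) = e (σ⁻¹ i) := by
  intro i
  rw [Perm.inv_eq_iff_eq, h]
  simp

theorem caseA2 {α : Type*} [Fintype α] [DecidableEq α] (G : Subgroup (Perm α)) {r : ℕ}
    (z : Perm α) (e : Fin r ↪ α)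
    (hN : ∀ σ : Perm (Fin r), ∃ g ∈ G, g * z * g⁻¹ ∈ Subgroup.zpowers z ∧
      ∀ i, g (e i) = e (σ i)) :
    ∀ σ ∈ alternatingGroup (Fin r), ∃ c ∈ G, c * z = z * c ∧ ∀ i, c (e i) = e (σ i) := by
  classical
  let S : Subgroup (Perm (Fin r)) :=
    { carrier := {σ | ∃ c ∈ G, c * z = z * c ∧ ∀ i, c (e i) = e (σ i)}
      one_mem' := ⟨1, G.one_mem, by simp, fun i => rfl⟩
      mul_mem' := by
        rintro σ τ ⟨g, hg, hgz, hgσ⟩ ⟨h, hh, hhz, hhτ⟩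
        refine ⟨g * h, G.mul_mem hg hh, ?_, fun i => ?_⟩
        · rw [mul_assoc, hhz, ← mul_assoc, hgz, mul_assoc]
        · rw [Perm.mul_apply, Perm.mul_apply, hhτ, hgσ]
      inv_mem' := by
        rintro σ ⟨g, hg, hgz, hgσ⟩
        refine ⟨g⁻¹, G.inv_mem hg, ?_, CA2_inv e g σ hgσ⟩
        have : Commute g z := hgz
        exact this.inv_left }
  have hswap : ∀ a b : Perm (Fin r), a.IsSwap → b.IsSwap → a * b ∈ S := by
    rintro _ _ ⟨w, x, hwx, rfl⟩ ⟨y, y', hyy, rfl⟩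
    obtain ⟨c, hc⟩ := isConj_iff.mp (isConj_swap hwx hyy)
    obtain ⟨g₁, hg₁, hz₁, he₁⟩ := hN (swap w x)
    obtain ⟨g₂, hg₂, hz₂, he₂⟩ := hN c⁻¹
    obtain ⟨n₁, hn₁⟩ := Subgroup.mem_zpowers_iff.mp hz₁
    obtain ⟨n₂, hn₂⟩ := Subgroup.mem_zpowers_iff.mp hz₂
    refine ⟨(g₂ * g₁)⁻¹ * (g₁ * g₂), G.mul_mem (G.inv_mem (G.mul_mem hg₂ hg₁))
      (G.mul_mem hg₁ hg₂), ?_, ?_⟩
    · have h1 : (g₁ * g₂) * z * (g₁ * g₂)⁻¹ = (z ^ n₁) ^ n₂ := by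
        calc (g₁ * g₂) * z * (g₁ * g₂)⁻¹ = g₁ * (g₂ * z * g₂⁻¹) * g₁⁻¹ := by group
          _ = g₁ * z ^ n₂ * g₁⁻¹ := by rw [hn₂]
          _ = (g₁ * z * g₁⁻¹) ^ n₂ := by rw [conj_zpow]
          _ = (z ^ n₁) ^ n₂ := by rw [hn₁]
      have h2 : (g₂ * g₁) * z * (g₂ * g₁)⁻¹ = (z ^ n₂) ^ n₁ := by
        calc (g₂ * g₁) * z * (g₂ * g₁)⁻¹ = g₂ * (g₁ * z * g₁⁻¹) * g₂⁻¹ := by group
          _ = g₂ * z ^ n₁ * g₂⁻¹ := by rw [hn₁]
          _ = (g₂ * z * g₂⁻¹) ^ n₁ := by rw [conj_zpow]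
          _ = (z ^ n₂) ^ n₁ := by rw [hn₂]
      have h3 : (g₁ * g₂) * z * (g₁ * g₂)⁻¹ = (g₂ * g₁) * z * (g₂ * g₁)⁻¹ := by
        rw [h1, h2, ← zpow_mul, ← zpow_mul, mul_comm]
      have h4 : (g₁ * g₂) * z = (g₂ * g₁) * z * (g₂ * g₁)⁻¹ * (g₁ * g₂) := by
        rw [← h3]; group
      calc (g₂ * g₁)⁻¹ * (g₁ * g₂) * z = (g₂ * g₁)⁻¹ * ((g₁ * g₂) * z) := by group
        _ = (g₂ * g₁)⁻¹ * ((g₂ * g₁) * z * (g₂ * g₁)⁻¹ * (g₁ * g₂)) := by rw [h4]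
        _ = z * ((g₂ * g₁)⁻¹ * (g₁ * g₂)) := by group
    · intro i
      have hi₁ := CA2_inv e g₁ _ he₁
      have hi₂ := CA2_inv e g₂ _ he₂
      have : (g₂ * g₁)⁻¹ * (g₁ * g₂) = g₁⁻¹ * g₂⁻¹ * g₁ * g₂ := by group
      rw [this]
      simp only [Perm.mul_apply]
      rw [he₂, he₁, hi₂, hi₁]
      congr 1
      rw [← hc]
      simp
  intro σ hσ
  suffices hind : ∀ (n : ℕ) (l : List (Perm (Fin r))) (_ : ∀ g, g ∈ l → IsSwap g)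
      (_ : l.length = 2 * n), l.prod ∈ S by
    obtain ⟨l, rfl, hl⟩ := truncSwapFactors σ
    obtain ⟨n, hn⟩ := (prod_list_swap_mem_alternatingGroup_iff_even_length hl).1 hσ
    rw [← two_mul] at hn
    exact hind n l hl hn
  intro n
  induction n with
  | zero =>
    intro l hl hn
    simp [List.length_eq_zero_iff.1 hn, one_mem]
  | succ n ih =>
    intro l hl hn
    rw [Nat.mul_succ] at hn
    obtain ⟨a, l, rfl⟩ := l.exists_of_length_succ hn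
    rw [List.length_cons, Nat.succ_inj] at hn
    obtain ⟨b, l, rfl⟩ := l.exists_of_length_succ hn
    rw [List.prod_cons, List.prod_cons, ← mul_assoc]
    rw [List.length_cons, Nat.succ_inj] at hn
    exact mul_mem (hswap a b (hl a List.mem_cons_self)
        (hl b (List.mem_cons_of_mem a List.mem_cons_self)))
      (ih _ (fun g hg => hl g (List.mem_cons_of_mem _ (List.mem_cons_of_mem _ hg))) hn)

end Cfsg.Agent.Lib.Helper63.H572
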