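import Mathlib

set_option autoImplicit false

namespace Cfsg.Agent.Lib.Helper63.H572

open Equiv Equiv.Perm MulAction

theorem caseA3 {α : Type*} [Fintype α] [DecidableEq α] (G : Subgroup (Perm α)) {k r : ℕ}
    (hkr : k < r) (hk2 : 2 ≤ k) (z : Perm α) (hz : Multiset.card z.cycleType = k) (e : Fin r ↪ α)
    (hC : ∀ σ ∈ alternatingGroup (Fin r), ∃ c ∈ G, c * z = z * c ∧ ∀ i, c (e i) = e (σ i)) :
    ∃ c ∈ G, c * z = z * c ∧ (∀ x, z x ≠ x → z.SameCycle x (c x)) ∧
      ∃ τ : Perm (Fin r), τ ≠ 1 ∧ ∀ i, c (e i) = e (τ i) := by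
  classical
  choose! cc hcG hcz hce using hC
  have hcen : ∀ σ : alternatingGroup (Fin r), cc σ ∈ Subgroup.centralizer ({z} : Set (Perm α)) := by
    intro σ
    rw [Subgroup.mem_centralizer_singleton_iff]
    exact (hcz σ σ.2)
  let f : alternatingGroup (Fin r) → Perm z.cycleFactorsFinset :=
    fun σ => OnCycleFactors.toPermHom z ⟨cc σ, hcen σ⟩
  have hcard : Fintype.card (Perm z.cycleFactorsFinset) < Fintype.card (alternatingGroup (Fin r)) := by
    have : Nontrivial (Fin r) := Fin.nontrivial_iff_two_le.mpr (by omega)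
    have h1 := two_mul_card_alternatingGroup (α := Fin r)
    rw [Fintype.card_perm, Fintype.card_fin] at h1
    rw [Fintype.card_perm, Fintype.card_coe]
    have h2 : z.cycleFactorsFinset.card = k := by
      rw [← hz, Equiv.Perm.cycleType_def, Multiset.card_map]; rfl
    rw [h2]
    have h3 : (k + 1).factorial ≤ r.factorial := Nat.factorial_le (by omega)
    rw [Nat.factorial_succ] at h3
    have h4 : 0 < k.factorial := Nat.factorial_pos k
    nlinarith
  obtain ⟨σ, σ', hne, hff⟩ := Fintype.exists_ne_map_eq_of_card_lt f hcard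
  let c0 : Subgroup.centralizer ({z} : Set (Perm α)) := ⟨cc σ, hcen σ⟩⁻¹ * ⟨cc σ', hcen σ'⟩
  have hker : c0 ∈ (OnCycleFactors.toPermHom z).ker := by
    rw [MonoidHom.mem_ker, map_mul, map_inv]
    have : OnCycleFactors.toPermHom z ⟨cc σ, hcen σ⟩ = OnCycleFactors.toPermHom z ⟨cc σ', hcen σ'⟩ := hff
    rw [this, inv_mul_cancel]
  rw [OnCycleFactors.mem_ker_toPermHom_iff] at hker
  have hc0 : (c0 : Perm α) = (cc σ)⁻¹ * cc σ' := rfl
  refine ⟨(cc σ)⁻¹ * cc σ', G.mul_mem (G.inv_mem (hcG σ σ.2)) (hcG σ' σ'.2), ?_, ?_, ?_⟩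
  · have := c0.2
    rw [Subgroup.mem_centralizer_singleton_iff] at this
    rw [← hc0]
    exact this
  · intro x hx
    have hmem : z.cycleOf x ∈ z.cycleFactorsFinset := by
      rw [Equiv.Perm.cycleOf_mem_cycleFactorsFinset_iff, Equiv.Perm.mem_support]
      exact hx
    have hcomm := hker _ hmem
    have h1 : x ∈ (z.cycleOf x).support := by
      rw [Equiv.Perm.mem_support_cycleOf_iff]
      exact ⟨Equiv.Perm.SameCycle.refl _ _, Equiv.Perm.mem_support.mpr hx⟩
    have h2 := (Equiv.Perm.mem_support_iff_of_commute hcomm x).mpr h1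
    rw [Equiv.Perm.mem_support_cycleOf_iff] at h2
    rw [← hc0]
    exact h2.1
  · refine ⟨(σ : Perm (Fin r))⁻¹ * σ', ?_, ?_⟩
    · intro h
      apply hne
      apply Subtype.ext
      exact (inv_mul_eq_one.mp h)
    · intro i
      rw [Perm.mul_apply, hce σ' σ'.2, Perm.mul_apply, Perm.inv_eq_iff_eq, hce σ σ.2]
      simp

end Cfsg.Agent.Lib.Helper63.H572
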