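import Mathlib

set_option autoImplicit false

namespace Cfsg.Agent.Lib.Helper63.H572

open Equiv Equiv.Perm MulAction

theorem caseA4 {α : Type*} [Fintype α] [DecidableEq α] (z c : Perm α) (hc : c * z = z * c)
    (x : α) (hx : z.SameCycle x (c x)) : (c ^ orderOf z) x = x := by
  obtain ⟨j, hj⟩ := hx
  have hcomm : Commute c (z ^ j) := (show Commute c z from hc).zpow_right j
  have key : ∀ n : ℕ, (c ^ n) x = ((z ^ j) ^ n) x := by
    intro n
    induction n with
    | zero => simp
    | succ n ih =>
      rw [pow_succ, Perm.mul_apply, ← hj, ← Perm.mul_apply, (hcomm.pow_left n).eq,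
        Perm.mul_apply, ih, ← Perm.mul_apply, ← pow_succ']
  rw [key, ← zpow_natCast, ← zpow_mul, mul_comm, zpow_mul, zpow_natCast, pow_orderOf_eq_one,
    one_zpow, Perm.one_apply]

end Cfsg.Agent.Lib.Helper63.H572
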