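import Mathlib

set_option autoImplicit false

namespace Cfsg.Agent.Lib.Helper63.H572

open Equiv Equiv.Perm MulAction

/-- a product of two "different" swaps has no nontrivial `p`-th root of unity behaviour -/
theorem CA5_swap_swap_pow {β : Type*} [Fintype β] [DecidableEq β] {p : ℕ} (hp : p.Prime)
    (hp5 : 5 ≤ p) (a b a' b' : β) (hab : a ≠ b) (hab' : a' ≠ b') (h1 : a' ≠ a) (h2 : a' ≠ b) :
    (swap a' b' * swap a b) ^ p ≠ 1 := by
  intro hpow
  have hdvd := orderOf_dvd_of_pow_eq_one hpow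
  by_cases hb'a : b' = a
  · subst hb'a
    have h3 : (swap b' a' * swap b' b).IsThreeCycle :=
      isThreeCycle_swap_mul_swap_same (Ne.symm h1) hab h2
    rw [swap_comm a' b', h3.orderOf] at hdvd
    have := (Nat.prime_dvd_prime_iff_eq Nat.prime_three hp).mp hdvd
    omega
  by_cases hb'b : b' = b
  · subst hb'b
    have h3 : (swap b' a' * swap b' a).IsThreeCycle :=
      isThreeCycle_swap_mul_swap_same (Ne.symm h2) (Ne.symm hab) h1
    rw [swap_comm a' b', swap_comm a b', h3.orderOf] at hdvd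
    have := (Nat.prime_dvd_prime_iff_eq Nat.prime_three hp).mp hdvd
    omega
  · have hdis : Disjoint (swap a' b') (swap a b) := by
      apply disjoint_swap_swap
      simp [hab, hab', h1, h2, hb'a, hb'b]
    have hsq : (swap a' b' * swap a b) ^ 2 = 1 := by
      rw [hdis.commute.mul_pow]
      simp [sq]
    have hne : swap a' b' * swap a b ≠ 1 := by
      intro h
      have := congrArg (fun f : Perm β => f a) h
      simp only [Perm.mul_apply, swap_apply_left, Perm.one_apply] at this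
      rw [swap_apply_of_ne_of_ne (Ne.symm h2) (Ne.symm hb'b)] at this
      exact hab this.symm
    have h2' : orderOf (swap a' b' * swap a b) = 2 := orderOf_eq_prime hsq hne
    rw [h2'] at hdvd
    have := (Nat.prime_dvd_prime_iff_eq Nat.prime_two hp).mp hdvd
    omega

theorem caseA5 {α : Type*} [Fintype α] [DecidableEq α] (G : Subgroup (Perm α)) {p r : ℕ}
    (hp : p.Prime) (hp5 : 5 ≤ p) (hr : 3 ≤ r) (z : Perm α) (e : Fin r ↪ α)
    (hN : ∀ σ : Perm (Fin r), ∃ g ∈ G, g * z * g⁻¹ ∈ Subgroup.zpowers z ∧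
      ∀ i, g (e i) = e (σ i))
    (c : Perm α) (hcG : c ∈ G) (hcz : c * z = z * c)
    (hcs : ∀ x, z x ≠ x → z.SameCycle x (c x))
    (τ : Perm (Fin r)) (hτ : τ ≠ 1) (hcτ : ∀ i, c (e i) = e (τ i)) :
    ∃ c' ∈ G, c' * z = z * c' ∧ (∀ x, z x ≠ x → z.SameCycle x (c' x)) ∧
      ∃ τ' : Perm (Fin r), τ' ^ p ≠ 1 ∧ ∀ i, c' (e i) = e (τ' i) := by
  classical
  -- choose a, b
  have hτ' : τ⁻¹ ≠ 1 := by simpa using hτ
  obtain ⟨a, ha⟩ : ∃ a, τ⁻¹ a ≠ a := by
    by_contra hcon
    push Not at hcon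
    exact hτ' (Equiv.ext hcon)
  obtain ⟨b, hb⟩ : ∃ b, b ∉ ({a, τ⁻¹ a} : Finset (Fin r)) := by
    by_contra hcon
    push Not at hcon
    have h1 : (Finset.univ : Finset (Fin r)) ⊆ {a, τ⁻¹ a} := fun x _ => hcon x
    have h2 := Finset.card_le_card h1
    have h3 : ({a, τ⁻¹ a} : Finset (Fin r)).card ≤ 2 := Finset.card_le_two
    rw [Finset.card_univ, Fintype.card_fin] at h2
    omega
  simp only [Finset.mem_insert, Finset.mem_singleton, not_or] at hb
  obtain ⟨hba, hba'⟩ := hb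
  obtain ⟨g, hgG, hgz, hge⟩ := hN (swap a b)
  obtain ⟨n, hn⟩ := Subgroup.mem_zpowers_iff.mp hgz
  -- z is a power of g z g⁻¹
  have hzp : Subgroup.zpowers (g * z * g⁻¹) = Subgroup.zpowers z := by
    apply Subgroup.eq_of_le_of_card_ge
    · rw [Subgroup.zpowers_le]; exact hgz
    · rw [Nat.card_zpowers, Nat.card_zpowers]
      have : orderOf (g * z * g⁻¹) = orderOf z := by
        have := (MulAut.conj g).toMonoidHom
        exact orderOf_injective (MulAut.conj g).toMonoidHom (MulAut.conj g).injective z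
      rw [this]
  obtain ⟨m, hm⟩ : ∃ m : ℤ, (g * z * g⁻¹) ^ m = z := by
    have : z ∈ Subgroup.zpowers (g * z * g⁻¹) := by rw [hzp]; exact Subgroup.mem_zpowers z
    exact Subgroup.mem_zpowers_iff.mp this
  have hm' : g * z ^ m * g⁻¹ = z := by rw [← conj_zpow]; exact hm
  have hcz' : Commute c z := hcz
  have hgc : Commute (g * c * g⁻¹) z := by
    have h1 : Commute (g * c * g⁻¹) (g * z * g⁻¹) := by
      show g * c * g⁻¹ * (g * z * g⁻¹) = g * z * g⁻¹ * (g * c * g⁻¹)
      have : c * z = z * c := hcz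
      calc g * c * g⁻¹ * (g * z * g⁻¹) = g * (c * z) * g⁻¹ := by group
        _ = g * (z * c) * g⁻¹ := by rw [this]
        _ = g * z * g⁻¹ * (g * c * g⁻¹) := by group
    rw [← hm]
    exact h1.zpow_right m
  refine ⟨c⁻¹ * (g * c * g⁻¹), G.mul_mem (G.inv_mem hcG)
    (G.mul_mem (G.mul_mem hgG hcG) (G.inv_mem hgG)), ?_, ?_, ?_⟩
  · exact (hcz'.inv_left.mul_left hgc)
  · intro x hx
    -- y = g⁻¹ x is moved by z
    have hy : z (g⁻¹ x) ≠ g⁻¹ x := by
      intro hfix
      apply hx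
      have h1 : (z ^ m) (g⁻¹ x) = g⁻¹ x := by
        exact (Equiv.Perm.zpow_apply_eq_self_of_apply_eq_self hfix m)
      calc z x = (g * z ^ m * g⁻¹) x := by rw [hm']
        _ = g ((z ^ m) (g⁻¹ x)) := rfl
        _ = g (g⁻¹ x) := by rw [h1]
        _ = x := by simp
    obtain ⟨j, hj⟩ := hcs _ hy
    -- g c g⁻¹ x = z^(n j) x
    have hw : (g * c * g⁻¹) x = ((z ^ n) ^ j) x := by
      rw [hn, conj_zpow]
      show g (c (g⁻¹ x)) = g ((z ^ j) (g⁻¹ x))
      rw [hj]
    have hsame1 : z.SameCycle x ((g * c * g⁻¹) x) := by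
      refine ⟨n * j, ?_⟩
      rw [zpow_mul, hw]
    set w := (g * c * g⁻¹) x with hwdef
    have hzw : z w ≠ w := by
      intro h
      exact hx ((hsame1.apply_eq_self_iff).mpr h)
    have hzw' : z (c⁻¹ w) ≠ c⁻¹ w := by
      intro h
      apply hzw
      have h1 : c (z (c⁻¹ w)) = z w := by
        have : (c * z) (c⁻¹ w) = (z * c) (c⁻¹ w) := by rw [hcz]
        simpa using this
      rw [← h1, h]; simp
    have hsame2 := hcs _ hzw'
    have h3 : c (c⁻¹ w) = w := by simp
    rw [h3] at hsame2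
    exact hsame1.trans hsame2.symm
  · refine ⟨swap (τ⁻¹ a) (τ⁻¹ b) * swap a b, ?_, ?_⟩
    · apply CA5_swap_swap_pow hp hp5
      · exact Ne.symm hba
      · intro h; exact hba (τ⁻¹.injective h).symm
      · exact ha
      · exact Ne.symm hba'
    · intro i
      have hginv : ∀ j, g⁻¹ (e j) = e (swap a b j) := by
        intro j
        rw [Perm.inv_eq_iff_eq, hge]; simp
      have hcinv : ∀ j, c⁻¹ (e j) = e (τ⁻¹ j) := by
        intro j
        rw [Perm.inv_eq_iff_eq, hcτ]; simp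
      show c⁻¹ (g (c (g⁻¹ (e i)))) = _
      rw [hginv, hcτ, hge, hcinv]
      congr 1
      rw [Perm.mul_apply]
      have : swap (τ⁻¹ a) (τ⁻¹ b) = τ⁻¹ * swap a b * τ⁻¹⁻¹ := by
        rw [Equiv.swap_apply_apply]
      rw [this, inv_inv]
      simp

end Cfsg.Agent.Lib.Helper63.H572
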