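import Mathlib
import Cfsg.Agent.S4219

set_option autoImplicit false

namespace Cfsg.Agent.Lib.Helper63.H572

open Equiv Equiv.Perm MulAction

theorem caseB1 {α : Type*} [Fintype α] [DecidableEq α] (G : Subgroup (Perm α)) {p r : ℕ}
    (hp : p.Prime) (hG : IsMultiplyPretransitive G α (r + 1)) (e' : Fin (r + 1) ↪ α)
    (hB : p ∣ Nat.card (stabilizer G e')) :
    ∃ U : Subgroup (Perm α), U ≤ G ∧ IsPGroup p U ∧ U ≠ ⊥ ∧ (∀ u ∈ U, ∀ i, u (e' i) = e' i) ∧
      (∀ a b : Fin (r + 1) ↪ α, (∀ i, ∀ u ∈ U, u (a i) = a i) → (∀ i, ∀ u ∈ U, u (b i) = b i) →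
        ∃ g ∈ G, g ∈ Subgroup.normalizer (U : Set (Perm α)) ∧ ∀ i, g (a i) = b i) := by
  classical
  have := Fact.mk hp
  let P : Sylow p (stabilizer G e') := default
  set P' : Subgroup G := (P : Subgroup (stabilizer G e')).map (stabilizer G e').subtype with hP'
  refine ⟨P'.map G.subtype, ?_, ?_, ?_, ?_, ?_⟩
  · rintro _ ⟨g, _, rfl⟩
    exact g.2
  · exact (P.isPGroup'.map _).map _
  · intro h
    rw [Subgroup.map_eq_bot_iff_of_injective _ G.subtype_injective, hP',
      Subgroup.map_eq_bot_iff_of_injective _ (stabilizer G e').subtype_injective] at h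
    exact P.ne_bot_of_dvd_card hB h
  · rintro _ ⟨g, ⟨h, _, rfl⟩, rfl⟩ i
    have h2 := congrArg (fun f : Fin (r + 1) ↪ α => f i) (mem_stabilizer_iff.mp h.2)
    exact h2
  · intro a b ha hb
    have hfix : ∀ c : Fin (r + 1) ↪ α, (∀ i, ∀ u ∈ P'.map G.subtype, u (c i) = c i) →
        ∀ i, c i ∈ fixedPoints P' α := by
      intro c hc i
      rw [mem_fixedPoints]
      rintro ⟨g, hg⟩
      exact hc i g ⟨g, hg, rfl⟩
    obtain ⟨g, hgN, hg⟩ := Cfsg.Agent.S4219.result hG e' P a b (hfix a ha) (hfix b hb)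
    refine ⟨g, g.2, ?_, ?_⟩
    · rw [Subgroup.mem_normalizer_iff]
      intro h
      constructor
      · rintro ⟨h', hh', rfl⟩
        exact ⟨g * h' * g⁻¹, (Subgroup.mem_normalizer_iff.mp hgN h').mp hh', rfl⟩
      · rintro ⟨y, hy, hyeq⟩
        refine ⟨g⁻¹ * y * g, ?_, ?_⟩
        · apply (Subgroup.mem_normalizer_iff.mp hgN (g⁻¹ * y * g)).mpr
          have : g * (g⁻¹ * y * g) * g⁻¹ = y := by group
          rw [this]
          exact hy
        · show (g : Perm α)⁻¹ * (y : Perm α) * (g : Perm α) = h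
          have hyeq' : (y : Perm α) = (g : Perm α) * h * (g : Perm α)⁻¹ := hyeq
          rw [hyeq']
          group
    · intro i
      have h5 := congrArg (fun f : Fin (r + 1) ↪ α => f i) hg
      exact h5

end Cfsg.Agent.Lib.Helper63.H572
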