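import Mathlib

set_option autoImplicit false

namespace Cfsg.Agent.Lib.Helper63.H572

open Equiv Equiv.Perm MulAction

theorem caseB1b {α : Type*} [Fintype α] [DecidableEq α] {k p r : ℕ} (hp : p.Prime)
    (hα : Fintype.card α = k * p + r) (U : Subgroup (Perm α)) (hU : IsPGroup p U) (hU1 : U ≠ ⊥)
    (e' : Fin (r + 1) ↪ α) (hfix : ∀ u ∈ U, ∀ i, u (e' i) = e' i) :
    ∃ j, 1 ≤ j ∧ j < k ∧ Nat.card (fixedPoints U α) = j * p + r := by
  classical
  have : Fact p.Prime := ⟨hp⟩
  have hmod := hU.card_modEq_card_fixedPoints α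
  rw [Nat.card_eq_fintype_card, hα] at hmod
  -- lower bound
  have hlow : r + 1 ≤ Nat.card (fixedPoints U α) := by
    let f : Fin (r + 1) → fixedPoints U α := fun i => ⟨e' i, by
      rw [mem_fixedPoints]; intro u; exact hfix u.1 u.2 i⟩
    have hf : Function.Injective f := by
      intro i j hij
      exact e'.injective (congrArg Subtype.val hij)
    have := Nat.card_le_card_of_injective f hf
    simpa using this
  -- upper bound
  have hup : Nat.card (fixedPoints U α) < k * p + r := by
    rw [← hα, ← Nat.card_eq_fintype_card, Nat.card_coe_set_eq, ← Set.ncard_univ]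
    apply Set.ncard_lt_ncard _ (Set.toFinite _)
    rw [Set.ssubset_univ_iff]
    intro h
    apply hU1
    rw [Subgroup.eq_bot_iff_forall]
    intro u hu
    ext x
    have : x ∈ fixedPoints U α := by rw [h]; trivial
    rw [mem_fixedPoints] at this
    exact this ⟨u, hu⟩
  have hmod' : (Nat.card (fixedPoints U α)) % p = r % p := by
    have := hmod.symm
    unfold Nat.ModEq at this
    rw [this, Nat.mul_add_mod_self_right]
  have hdvd : p ∣ Nat.card (fixedPoints U α) - r := by
    apply (Nat.modEq_iff_dvd' (by omega)).1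
    exact hmod'.symm
  obtain ⟨j, hj⟩ := hdvd
  refine ⟨j, ?_, ?_, by rw [mul_comm]; omega⟩
  · rcases Nat.eq_zero_or_pos j with h | h
    · subst h; omega
    · exact h
  · by_contra hcon
    push Not at hcon
    have : p * k ≤ p * j := Nat.mul_le_mul_left p hcon
    rw [mul_comm p k] at this
    omega

end Cfsg.Agent.Lib.Helper63.H572
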