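import Mathlib

set_option autoImplicit false

namespace Cfsg.Agent.Lib.Helper63.H572

open Equiv Equiv.Perm MulAction

theorem CB2_fix_iff {α : Type*} (U : Subgroup (Perm α)) (g : Perm α)
    (hg : g ∈ Subgroup.normalizer (U : Set (Perm α))) (x : α) :
    g x ∈ fixedPoints U α ↔ x ∈ fixedPoints U α := by
  rw [mem_fixedPoints, mem_fixedPoints]
  constructor
  · rintro h ⟨u, hu⟩
    have h1 := h ⟨g * u * g⁻¹, (Subgroup.mem_normalizer_iff.mp hg u).mp hu⟩
    have h2 : (g * u * g⁻¹) (g x) = g x := h1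
    have h3 : g (u x) = g x := by simpa using h2
    exact g.injective h3
  · rintro h ⟨u, hu⟩
    have hmem : g⁻¹ * u * g ∈ U := by
      apply (Subgroup.mem_normalizer_iff.mp hg _).mpr
      have : g * (g⁻¹ * u * g) * g⁻¹ = u := by group
      rw [this]; exact hu
    have h1 := h ⟨g⁻¹ * u * g, hmem⟩
    have h2 : (g⁻¹ * u * g) x = x := h1
    simp only [Perm.mul_apply] at h2
    show u (g x) = g x
    rw [Perm.inv_eq_iff_eq] at h2
    exact h2

theorem caseB2 {α : Type*} [Fintype α] [DecidableEq α] (G U : Subgroup (Perm α)) {t : ℕ}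
    (hW : ∀ a b : Fin t ↪ α, (∀ i, ∀ u ∈ U, u (a i) = a i) → (∀ i, ∀ u ∈ U, u (b i) = b i) →
        ∃ g ∈ G, g ∈ Subgroup.normalizer (U : Set (Perm α)) ∧ ∀ i, g (a i) = b i) :
    ∃ Y : Subgroup (Perm (fixedPoints U α)),
      (∀ σ ∈ Y, ∃ g ∈ G, g ∈ Subgroup.normalizer (U : Set (Perm α)) ∧
        ∀ w : fixedPoints U α, g (w : α) = (σ w : α)) ∧
      IsMultiplyPretransitive Y (fixedPoints U α) t := by
  classical
  let Y : Subgroup (Perm (fixedPoints U α)) :=
    { carrier := {σ | ∃ g ∈ G, g ∈ Subgroup.normalizer (U : Set (Perm α)) ∧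
        ∀ w : fixedPoints U α, g (w : α) = (σ w : α)}
      one_mem' := ⟨1, G.one_mem, Subgroup.one_mem _, fun w => rfl⟩
      mul_mem' := by
        rintro σ τ ⟨g, hg, hgN, hgσ⟩ ⟨h, hh, hhN, hhτ⟩
        refine ⟨g * h, G.mul_mem hg hh, Subgroup.mul_mem _ hgN hhN, fun w => ?_⟩
        rw [Perm.mul_apply, Perm.mul_apply, hhτ, hgσ]
      inv_mem' := by
        rintro σ ⟨g, hg, hgN, hgσ⟩
        refine ⟨g⁻¹, G.inv_mem hg, Subgroup.inv_mem _ hgN, fun w => ?_⟩
        rw [Perm.inv_eq_iff_eq, hgσ]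
        simp }
  refine ⟨Y, fun σ hσ => hσ, ?_⟩
  refine ⟨fun a b => ?_⟩
  have hfx : ∀ (c : Fin t ↪ fixedPoints U α) (i : Fin t), ∀ u ∈ U,
      u ((c.trans (Function.Embedding.subtype _)) i) = (c.trans (Function.Embedding.subtype _)) i := by
    intro c i u hu
    exact (mem_fixedPoints.mp (c i).2) ⟨u, hu⟩
  obtain ⟨g, hgG, hgN, hg⟩ := hW (a.trans (Function.Embedding.subtype _))
    (b.trans (Function.Embedding.subtype _)) (hfx a) (hfx b)
  let σ : Perm (fixedPoints U α) := g.subtypePerm (CB2_fix_iff U g hgN)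
  refine ⟨⟨σ, g, hgG, hgN, fun w => rfl⟩, ?_⟩
  ext i
  exact hg i

end Cfsg.Agent.Lib.Helper63.H572
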