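import Mathlib

set_option autoImplicit false

namespace Cfsg.Agent.Lib.Helper63.H572

open Equiv Equiv.Perm MulAction

theorem sw_aux {α : Type*} (f : Perm α) (x : α) : f (f⁻¹ x) = x := f.apply_symm_apply x

theorem swap_conj_three {α : Type*} [Fintype α] [DecidableEq α] (w g : Perm α) (s t : α)
    (hs : w s ≠ s) (ht : w t = t) (hg : ∀ x, w x ≠ x → x ≠ s → g x = x) (hgs : g s = t) :
    (g * w * g⁻¹ * w⁻¹).IsThreeCycle := by
  have hst : s ≠ t := by rintro rfl; exact hs ht
  obtain ⟨b, hb⟩ : ∃ b, b = w s := ⟨_, rfl⟩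
  have hbs : b ≠ s := by rw [hb]; exact hs
  have hwb : w b ≠ b := fun h => hs (w.injective (by rw [← hb]; exact h))
  have hbt : b ≠ t := by
    intro h; apply hwb; rw [h]; exact ht
  have hgb : g b = b := hg b hwb hbs
  have hginv : ∀ y, w y ≠ y → y ≠ s → g⁻¹ y = y := by
    intro y h1 h2
    rw [Equiv.Perm.inv_eq_iff_eq]; exact (hg y h1 h2).symm
  have hwinv : ∀ y, w y ≠ y → w (w⁻¹ y) ≠ w⁻¹ y := by
    intro y h1 h2
    apply h1
    have : w⁻¹ y = y := by
      have h3 : w (w⁻¹ y) = y := sw_aux w y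
      rw [h3] at h2; exact h2.symm
    rw [Equiv.Perm.inv_eq_iff_eq] at this
    exact this.symm
  have hout : ∀ y, w y = y → y ≠ t → g (w (g⁻¹ y)) = y := by
    intro y h1 h2
    have h3 : w (g⁻¹ y) = g⁻¹ y := by
      by_contra h4
      by_cases h5 : g⁻¹ y = s
      · apply h2
        rw [Equiv.Perm.inv_eq_iff_eq] at h5
        rw [h5, hgs]
      · have h6 := hg _ h4 h5
        rw [sw_aux] at h6
        rw [← h6] at h4
        exact h4 h1
    rw [h3, sw_aux]
  have key : g * w * g⁻¹ * w⁻¹ = swap s b * swap s t := by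
    ext x
    simp only [Perm.mul_apply]
    by_cases hxs : x = s
    · subst hxs
      have h1 := hwinv x hs
      have h2 : w⁻¹ x ≠ x := by
        intro h; rw [h] at h1; exact h1 (by
          rw [Equiv.Perm.inv_eq_iff_eq] at h; exact h.symm)
      rw [hginv _ h1 h2, sw_aux, hgs, swap_apply_left,
        swap_apply_of_ne_of_ne hst.symm hbt.symm]
    by_cases hxt : x = t
    · subst hxt
      have h1 : w⁻¹ x = x := by rw [Equiv.Perm.inv_eq_iff_eq]; exact ht.symm
      have h2 : g⁻¹ x = s := by rw [Equiv.Perm.inv_eq_iff_eq]; exact hgs.symm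
      rw [h1, h2, ← hb, hgb, swap_apply_right, swap_apply_left]
    by_cases hxb : x = b
    · subst hxb
      have h1 : w⁻¹ x = s := by rw [Equiv.Perm.inv_eq_iff_eq]; exact hb
      rw [h1, swap_apply_of_ne_of_ne hbs hbt, swap_apply_right]
      have h3 : w (g⁻¹ s) = g⁻¹ s := by
        by_contra h4
        by_cases h5 : g⁻¹ s = s
        · rw [Equiv.Perm.inv_eq_iff_eq] at h5
          exact hst (h5.trans hgs)
        · have h6 := hg _ h4 h5
          rw [sw_aux] at h6
          exact h5 h6.symm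
      rw [h3, sw_aux]
    rw [swap_apply_of_ne_of_ne hxs hxt, swap_apply_of_ne_of_ne hxs hxb]
    by_cases hwx : w x = x
    · have h1 : w⁻¹ x = x := by rw [Equiv.Perm.inv_eq_iff_eq]; exact hwx.symm
      rw [h1]
      exact hout x hwx hxt
    · have h1 := hwinv x hwx
      have h2 : w⁻¹ x ≠ s := by
        intro h
        rw [Equiv.Perm.inv_eq_iff_eq] at h
        exact hxb (h.trans hb.symm)
      rw [hginv _ h1 h2, sw_aux, hg x hwx hxs]
  rw [key]
  exact Equiv.Perm.isThreeCycle_swap_mul_swap_same hbs.symm hst hbt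

end Cfsg.Agent.Lib.Helper63.H572
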