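import Mathlib
import Cfsg.Agent.Lib.Helper63.H572.SW

set_option autoImplicit false

namespace Cfsg.Agent.Lib.Helper63.H572

open Equiv Equiv.Perm MulAction

theorem caseB3 {W : Type*} [Fintype W] [DecidableEq W] {p : ℕ} (hp : p.Prime) (hp5 : 5 ≤ p)
    (hW : p + 3 ≤ Fintype.card W) :
    ∃ σ ρ : Perm W, σ ∈ alternatingGroup W ∧ ρ ∈ alternatingGroup W ∧ σ.IsCycle ∧
      σ.support.card = p ∧ (ρ * σ * ρ⁻¹ * σ⁻¹).IsThreeCycle := by
  obtain ⟨f⟩ : Nonempty (Fin (p + 3) ↪ W) :=
    Function.Embedding.nonempty_of_card_le (by rw [Fintype.card_fin]; exact hW)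
  have hle : p ≤ p + 3 := by omega
  obtain ⟨l, hldef⟩ : ∃ l : List W, l = List.ofFn (fun i : Fin p => f (Fin.castLE hle i)) :=
    ⟨_, rfl⟩
  have hl : l.Nodup := by
    rw [hldef, List.nodup_ofFn]
    intro i j hij
    have := f.injective hij
    exact Fin.castLE_injective _ this
  have hlen : l.length = p := by rw [hldef]; exact List.length_ofFn
  have hmem : ∀ x, x ∈ l ↔ ∃ i : Fin p, f (Fin.castLE hle i) = x := by
    intro x; rw [hldef, List.mem_ofFn]
  obtain ⟨σ, hσdef⟩ : ∃ σ : Perm W, σ = l.formPerm := ⟨_, rfl⟩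
  have hσc : σ.IsCycle := by rw [hσdef]; exact List.isCycle_formPerm hl (by omega)
  have hσs : σ.support = l.toFinset := by
    rw [hσdef]
    exact List.support_formPerm_of_nodup l hl (by
      intro x hx; rw [hx] at hlen; simp at hlen; omega)
  have hσcard : σ.support.card = p := by rw [hσs, List.toFinset_card_of_nodup hl, hlen]
  have hσmem : ∀ x, σ x ≠ x ↔ ∃ i : Fin p, f (Fin.castLE hle i) = x := by
    intro x
    rw [← Equiv.Perm.mem_support, hσs, List.mem_toFinset, hmem]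
  have hodd : Odd p := hp.odd_of_ne_two (by omega)
  have hσalt : σ ∈ alternatingGroup W := by
    rw [Equiv.Perm.mem_alternatingGroup, hσc.sign, hσcard, hodd.neg_one_pow]
    simp
  let x0 : W := f ⟨0, by omega⟩
  let t : W := f ⟨p, by omega⟩
  let b1 : W := f ⟨p + 1, by omega⟩
  let b2 : W := f ⟨p + 2, by omega⟩
  have hne : ∀ (i j : Fin (p + 3)), (i : ℕ) ≠ j → f i ≠ f j := by
    intro i j hij h
    exact hij (congrArg Fin.val (f.injective h))
  have hx0t : x0 ≠ t := hne _ _ (by simp; omega)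
  have hb12 : b1 ≠ b2 := hne _ _ (by simp)
  have hx0b1 : x0 ≠ b1 := hne _ _ (by simp)
  have hx0b2 : x0 ≠ b2 := hne _ _ (by simp)
  refine ⟨σ, swap x0 t * swap b1 b2, hσalt, ?_, hσc, hσcard, ?_⟩
  · rw [Equiv.Perm.mem_alternatingGroup, map_mul, Equiv.Perm.sign_swap hx0t,
      Equiv.Perm.sign_swap hb12]
    simp
  · apply swap_conj_three σ _ x0 t
    · rw [hσmem]
      exact ⟨⟨0, by omega⟩, rfl⟩
    · by_contra h
      obtain ⟨i, hi⟩ := (hσmem t).1 h
      exact hne _ _ (by simp; have := i.2; omega) hi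
    · intro x hx hxs
      obtain ⟨i, rfl⟩ := (hσmem x).1 hx
      have hi := i.2
      rw [Perm.mul_apply, swap_apply_of_ne_of_ne (hne _ _ (by simp; omega))
        (hne _ _ (by simp; omega)), swap_apply_of_ne_of_ne hxs (hne _ _ (by simp; omega))]
    · rw [Perm.mul_apply, swap_apply_of_ne_of_ne hx0b1 hx0b2, swap_apply_left]

end Cfsg.Agent.Lib.Helper63.H572
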