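import Mathlib

set_option autoImplicit false

namespace Cfsg.Agent.Lib.Helper63.H572

open Equiv Equiv.Perm MulAction

theorem p_part {M : Type*} [Group M] [Finite M] (x : M) {p : ℕ} (hp : p.Prime) :
    ∃ n a : ℕ, n % p = 1 ∧ (x ^ n) ^ (p ^ a) = 1 := by
  have ho : orderOf x ≠ 0 := (orderOf_pos x).ne'
  obtain ⟨a, m, hm, hom⟩ := Nat.exists_eq_pow_mul_and_not_dvd ho p hp.ne_one
  have hcop : Nat.Coprime m p := ((Nat.Prime.coprime_iff_not_dvd hp).2 hm).symm
  obtain ⟨m', hm'⟩ := Nat.exists_mul_mod_eq_one_of_coprime hcop hp.one_lt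
  refine ⟨m * m', a, hm'.2, ?_⟩
  rw [← pow_mul]
  have : m * m' * p ^ a = orderOf x * m' := by rw [hom]; ring
  rw [this, pow_mul, pow_orderOf_eq_one, one_pow]

end Cfsg.Agent.Lib.Helper63.H572
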