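import Mathlib

set_option autoImplicit false

namespace Cfsg.Agent.Lib.Helper63.H572

open Equiv Equiv.Perm MulAction

theorem translate {α : Type*} [Fintype α] [DecidableEq α] {k p r : ℕ} (hp : p.Prime)
    (hα : Fintype.card α = k * p + r) (hkp : k < p) (U : Subgroup (Perm α)) (hU : IsPGroup p U)
    (x : Perm α) (hx : ∃ a : ℕ, x ^ (p ^ a) = 1)
    (hxU : x ∈ Subgroup.normalizer (U : Set (Perm α)))
    (d : Fin r ↪ α) (hdU : ∀ u ∈ U, ∀ i, u (d i) = d i) (hdx : ∀ i, x (d i) = d i)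
    (o : α) (ho : ∃ v ∈ U, v o ≠ o) : ∃ u ∈ U, ∀ v ∈ U, x (v o) = u (v o) := by
  classical
  have := Fact.mk hp
  set S : Subgroup (Perm α) := U ⊔ Subgroup.zpowers x with hS
  have hxp : IsPGroup p (Subgroup.zpowers x) := by
    obtain ⟨a, ha⟩ := hx
    rintro ⟨y, hy⟩
    obtain ⟨n, rfl⟩ := Subgroup.mem_zpowers_iff.mp hy
    refine ⟨a, ?_⟩
    apply Subtype.ext
    show (x ^ n) ^ (p ^ a) = 1
    rw [← zpow_natCast, ← zpow_mul, mul_comm, zpow_mul, zpow_natCast, ha, one_zpow]
  have hSp : IsPGroup p S := by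
    rw [hS, sup_comm]
    exact IsPGroup.to_sup_of_normal_right' hxp hU (by rw [Subgroup.zpowers_le]; exact hxU)
  have hUS : U ≤ S := le_sup_left
  have hxS : x ∈ S := (le_sup_right : Subgroup.zpowers x ≤ S) (Subgroup.mem_zpowers x)
  -- S fixes the d i
  have hdS : ∀ s ∈ S, ∀ i, s (d i) = d i := by
    intro s hs i
    have hle : S ≤ MulAction.stabilizer (Perm α) (d i) := by
      rw [hS]
      refine sup_le ?_ ?_
      · intro u hu
        exact MulAction.mem_stabilizer_iff.mpr (hdU u hu i)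
      · rw [Subgroup.zpowers_le]
        exact MulAction.mem_stabilizer_iff.mpr (hdx i)
    exact MulAction.mem_stabilizer_iff.mp (hle hs)
  obtain ⟨v0, hv0U, hv0⟩ := ho
  -- the S-orbit avoids range d
  have hsub : MulAction.orbit S o ⊆ (Set.range d)ᶜ := by
    rintro _ ⟨s, rfl⟩ ⟨i, hi⟩
    have h1 : (s : Perm α) o = d i := hi.symm
    have h2 : o = d i := by
      have := hdS s s.2 i
      exact (s : Perm α).injective (h1.trans this.symm)
    exact hv0 (by rw [h2]; exact hdU v0 hv0U i)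
  have hcardc : ((Set.range d)ᶜ).ncard = k * p := by
    rw [Set.ncard_compl, Set.ncard_range_of_injective d.injective, Nat.card_eq_fintype_card,
      Nat.card_eq_fintype_card, Fintype.card_fin, hα]
    omega
  have hSle : (MulAction.orbit S o).ncard ≤ k * p := by
    rw [← hcardc]
    exact Set.ncard_le_ncard hsub (Set.toFinite _)
  obtain ⟨b, hb⟩ := hSp.card_orbit o
  obtain ⟨a, ha⟩ := hU.card_orbit o
  rw [Nat.card_coe_set_eq] at hb ha
  have hUSo : MulAction.orbit U o ⊆ MulAction.orbit S o := by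
    rintro _ ⟨u, rfl⟩
    exact ⟨⟨u, hUS u.2⟩, rfl⟩
  have hle1 : (MulAction.orbit U o).ncard ≤ (MulAction.orbit S o).ncard :=
    Set.ncard_le_ncard hUSo (Set.toFinite _)
  have ha1 : a ≠ 0 := by
    rintro rfl
    rw [pow_zero, Set.ncard_eq_one] at ha
    obtain ⟨y, hy⟩ := ha
    have h1 : o ∈ MulAction.orbit U o := MulAction.mem_orbit_self o
    have h2 : v0 o ∈ MulAction.orbit U o := ⟨⟨v0, hv0U⟩, rfl⟩
    rw [hy] at h1 h2
    exact hv0 (h2.trans h1.symm)
  have hb1 : b ≤ 1 := by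
    by_contra hcon
    have h2 : p ^ 2 ≤ p ^ b := Nat.pow_le_pow_right hp.pos (by omega)
    have h3 : k * p < p * p := Nat.mul_lt_mul_of_pos_right hkp hp.pos
    rw [hb] at hSle
    nlinarith
  have hpa : p ≤ p ^ a := by
    calc p = p ^ 1 := (pow_one p).symm
      _ ≤ p ^ a := Nat.pow_le_pow_right hp.pos (by omega)
  have hpb : p ^ b ≤ p := by
    calc p ^ b ≤ p ^ 1 := Nat.pow_le_pow_right hp.pos hb1
      _ = p := pow_one p
  have hSo : (MulAction.orbit S o).ncard = p := by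
    rw [hb] at hle1 ⊢; rw [ha] at hle1; omega
  have hUo : (MulAction.orbit U o).ncard = p := by
    rw [hb] at hle1; rw [ha] at hle1 ⊢; omega
  have heq : MulAction.orbit U o = MulAction.orbit S o :=
    Set.eq_of_subset_of_ncard_le hUSo (by rw [hSo, hUo]) (Set.toFinite _)
  have hidx : (MulAction.stabilizer S o).index = p := by
    rw [MulAction.index_stabilizer, hSo]
  have hnorm : (MulAction.stabilizer S o).Normal := by
    apply Subgroup.normal_of_index_eq_minFac_card
    obtain ⟨n, hn⟩ := IsPGroup.iff_card.mp hSp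
    rw [hidx, hn]
    have hn0 : n ≠ 0 := by
      rintro rfl
      have h1 := (MulAction.stabilizer S o).index_dvd_card
      rw [hidx, hn, pow_zero] at h1
      exact hp.one_lt.ne' (Nat.dvd_one.mp h1)
    exact (hp.pow_minFac hn0).symm
  have hxo : x o ∈ MulAction.orbit U o := by
    rw [heq]
    exact ⟨⟨x, hxS⟩, rfl⟩
  obtain ⟨u, hu⟩ := hxo
  have hu' : (u : Perm α) o = x o := hu
  refine ⟨u, u.2, ?_⟩
  intro v hv
  let s : S := ⟨(u : Perm α)⁻¹ * x, S.mul_mem (S.inv_mem (hUS u.2)) hxS⟩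
  have hs : s ∈ MulAction.stabilizer S o := by
    rw [MulAction.mem_stabilizer_iff]
    show ((u : Perm α)⁻¹ * x) o = o
    rw [Perm.mul_apply, ← hu']; simp
  let t : S := ⟨v, hUS hv⟩
  have h1 := hnorm.conj_mem s hs t⁻¹
  rw [MulAction.mem_stabilizer_iff] at h1
  have h2 : (v⁻¹ * ((u : Perm α)⁻¹ * x) * v⁻¹⁻¹) o = o := h1
  rw [inv_inv] at h2
  simp only [Perm.mul_apply] at h2
  have h3 := congrArg (fun y => (u : Perm α) (v y)) h2
  simpa using h3

end Cfsg.Agent.Lib.Helper63.H572
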