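import Mathlib

set_option autoImplicit false

namespace Cfsg.Agent.Lib.Helper63.H572

open Equiv Equiv.Perm MulAction

theorem ptype_support {α : Type*} [Fintype α] [DecidableEq α] {r : ℕ} (u : Perm α)
    (d : Fin r ↪ α) (hd : ∀ i, u (d i) = d i) : u.support.card + r ≤ Fintype.card α := by
  have h1 : Disjoint u.support (Finset.univ.map d) := by
    rw [Finset.disjoint_left]
    intro x hx hx'
    obtain ⟨i, -, rfl⟩ := Finset.mem_map.1 hx'
    exact (Equiv.Perm.mem_support.1 hx) (hd i)
  have h2 := Finset.card_le_univ (u.support ∪ Finset.univ.map d)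
  rw [Finset.card_union_of_disjoint h1, Finset.card_map, Finset.card_univ, Fintype.card_fin] at h2
  exact h2

theorem ptype {α : Type*} [Fintype α] [DecidableEq α] {k p r : ℕ} (hp : p.Prime)
    (hα : Fintype.card α = k * p + r) (hkp : k < p) (u : Perm α) {a : ℕ} (hu : u ^ (p ^ a) = 1)
    (d : Fin r ↪ α) (hd : ∀ i, u (d i) = d i) : u ^ p = 1 := by
  ext x
  by_cases hx : u x = x
  · have : (u ^ p) x = x := by
      have := Equiv.Perm.pow_apply_eq_self_of_apply_eq_self hx p
      exact this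
    simpa using this
  have hc : (u.cycleOf x).IsCycle := Equiv.Perm.isCycle_cycleOf u hx
  have hcx : u.cycleOf x x ≠ x := by
    rw [Equiv.Perm.cycleOf_apply_self]; exact hx
  have h1 : (u.cycleOf x) ^ (p ^ a) = 1 := by
    rw [hc.pow_eq_one_iff]
    refine ⟨x, hcx, ?_⟩
    rw [Equiv.Perm.cycleOf_pow_apply_self, hu]; rfl
  obtain ⟨b, -, hb⟩ := (Nat.dvd_prime_pow hp).1 (orderOf_dvd_of_pow_eq_one h1)
  have h2 : orderOf (u.cycleOf x) ≤ u.support.card := by
    rw [hc.orderOf]
    exact Finset.card_le_card (Equiv.Perm.support_cycleOf_le u x)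
  have h3 := ptype_support u d hd
  have h4 : p ^ b < p ^ 2 := by
    have : k * p < p * p := Nat.mul_lt_mul_of_pos_right hkp hp.pos
    rw [sq]; omega
  have h5 : b < 2 := (Nat.pow_lt_pow_iff_right hp.one_lt).1 h4
  have h6 : (u.cycleOf x) ^ p = 1 := by
    apply orderOf_dvd_iff_pow_eq_one.1
    rw [hb]
    calc p ^ b ∣ p ^ 1 := pow_dvd_pow p (by omega)
      _ = p := pow_one p
  rw [← Equiv.Perm.cycleOf_pow_apply_self, h6]

end Cfsg.Agent.Lib.Helper63.H572
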