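import Mathlib
import Cfsg.Agent.Lib.Helper63.H572.CB5
import Cfsg.Agent.Lib.Helper63.H572.PTYPE

set_option autoImplicit false

namespace Cfsg.Agent.Lib.Helper63.H572

open Equiv Equiv.Perm MulAction

theorem caseB6a {α : Type*} [Fintype α] [DecidableEq α] {k p r : ℕ} (hp : p.Prime)
    (hα : Fintype.card α = k * p + r) (hkp : k < p) (U : Subgroup (Perm α)) (hU : IsPGroup p U)
    (x g : Perm α) (hx : ∃ a : ℕ, x ^ (p ^ a) = 1)
    (hxU : x ∈ Subgroup.normalizer (U : Set (Perm α)))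
    (hgU : g ∈ Subgroup.normalizer (U : Set (Perm α)))
    (d : Fin r ↪ α) (hdU : ∀ u ∈ U, ∀ i, u (d i) = d i) (hdx : ∀ i, x (d i) = d i)
    (o : α) (ho : ∃ v ∈ U, v o ≠ o) : ((g * x * g⁻¹ * x⁻¹) ^ p) o = o := by
  classical
  obtain ⟨u1, hu1U, hu1⟩ := translate hp hα hkp U hU x hx hxU d hdU hdx o ho
  have hx2 : ∃ a : ℕ, (g * x * g⁻¹) ^ (p ^ a) = 1 := by
    obtain ⟨a, ha⟩ := hx
    exact ⟨a, by rw [conj_pow, ha]; group⟩
  have hx2U : g * x * g⁻¹ ∈ Subgroup.normalizer (U : Set (Perm α)) :=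
    Subgroup.mul_mem _ (Subgroup.mul_mem _ hgU hxU) (Subgroup.inv_mem _ hgU)
  have hd'U : ∀ u ∈ U, ∀ i, u ((d.trans g.toEmbedding) i) = (d.trans g.toEmbedding) i := by
    intro u hu i
    show u (g (d i)) = g (d i)
    have hmem : g⁻¹ * u * g ∈ U := by
      apply (Subgroup.mem_normalizer_iff.mp hgU _).mpr
      have : g * (g⁻¹ * u * g) * g⁻¹ = u := by group
      rw [this]; exact hu
    have h1 := hdU _ hmem i
    simp only [Perm.mul_apply] at h1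
    rw [Perm.inv_eq_iff_eq] at h1
    exact h1
  have hd'x : ∀ i, (g * x * g⁻¹) ((d.trans g.toEmbedding) i) = (d.trans g.toEmbedding) i := by
    intro i
    show g (x (g⁻¹ (g (d i)))) = g (d i)
    simp [hdx]
  obtain ⟨u2, hu2U, hu2⟩ := translate hp hα hkp U hU (g * x * g⁻¹) hx2 hx2U
    (d.trans g.toEmbedding) hd'U hd'x o ho
  have hxinv : ∀ v ∈ U, x⁻¹ (v o) = u1⁻¹ (v o) := by
    intro v hv
    rw [Perm.inv_eq_iff_eq]
    have h1 := hu1 (u1⁻¹ * v) (U.mul_mem (U.inv_mem hu1U) hv)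
    simp only [Perm.mul_apply] at h1
    rw [h1]; simp
  have hy : ∀ v ∈ U, (g * x * g⁻¹ * x⁻¹) (v o) = (u2 * u1⁻¹) (v o) := by
    intro v hv
    rw [Perm.mul_apply, hxinv v hv]
    have h1 := hu2 (u1⁻¹ * v) (U.mul_mem (U.inv_mem hu1U) hv)
    simp only [Perm.mul_apply] at h1 ⊢
    exact h1
  have huU : u2 * u1⁻¹ ∈ U := U.mul_mem hu2U (U.inv_mem hu1U)
  have hpow : ∀ n : ℕ, ((g * x * g⁻¹ * x⁻¹) ^ n) o = ((u2 * u1⁻¹) ^ n) o := by
    intro n
    induction n with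
    | zero => simp
    | succ n ih =>
      rw [pow_succ', pow_succ', Perm.mul_apply, Perm.mul_apply, ih]
      exact hy _ (U.pow_mem huU n)
  rw [hpow]
  obtain ⟨a, ha⟩ := hU ⟨u2 * u1⁻¹, huU⟩
  have ha' : (u2 * u1⁻¹) ^ (p ^ a) = 1 := congrArg Subtype.val ha
  rw [ptype hp hα hkp (u2 * u1⁻¹) ha' d (hdU _ huU)]
  rfl

end Cfsg.Agent.Lib.Helper63.H572
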