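import Mathlib

set_option autoImplicit false

namespace Cfsg.Agent.Lib.Helper63.H572

open Equiv Equiv.Perm MulAction

theorem caseB6b {α : Type*} [Fintype α] [DecidableEq α] (U : Subgroup (Perm α))
    [Fintype (fixedPoints U α)] [DecidableEq (fixedPoints U α)] (y : Perm α)
    (θ : Perm (fixedPoints U α)) (hy : ∀ w : fixedPoints U α, y (w : α) = (θ w : α))
    (hθ : θ.IsThreeCycle) {p : ℕ} (hp3 : ¬ 3 ∣ p)
    (hout : ∀ o, (∃ v ∈ U, v o ≠ o) → (y ^ p) o = o) :
    y ^ p ≠ 1 ∧ (y ^ p).support.card ≤ 3 := by
  have hpow : ∀ (n : ℕ) (w : fixedPoints U α), (y ^ n) (w : α) = ((θ ^ n) w : α) := by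
    intro n
    induction n with
    | zero => intro w; simp
    | succ n ih =>
      intro w
      rw [pow_succ, pow_succ, Perm.mul_apply, Perm.mul_apply, hy, ih]
  have hθp : θ ^ p ≠ 1 := by
    intro h
    apply hp3
    rw [← hθ.orderOf]
    exact orderOf_dvd_of_pow_eq_one h
  constructor
  · intro h
    apply hθp
    ext w
    have := hpow p w
    rw [h] at this
    simpa using this.symm
  · have hsub : (y ^ p).support ⊆ θ.support.map (Function.Embedding.subtype _) := by
      intro x hx
      rw [Equiv.Perm.mem_support] at hx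
      have hxW : x ∈ fixedPoints U α := by
        by_contra hcon
        apply hx
        apply hout
        rw [mem_fixedPoints] at hcon
        push Not at hcon
        obtain ⟨v, hv⟩ := hcon
        exact ⟨v, v.2, hv⟩
      rw [Finset.mem_map]
      refine ⟨⟨x, hxW⟩, ?_, rfl⟩
      apply Equiv.Perm.support_pow_le θ p
      rw [Equiv.Perm.mem_support]
      intro h
      apply hx
      have := hpow p ⟨x, hxW⟩
      rw [h] at this
      exact this
    calc (y ^ p).support.card ≤ (θ.support.map (Function.Embedding.subtype _)).card :=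
          Finset.card_le_card hsub
      _ = 3 := by rw [Finset.card_map, hθ.card_support]

end Cfsg.Agent.Lib.Helper63.H572
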