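import Mathlib

set_option autoImplicit false

namespace Cfsg.Agent.Lib.Helper63.H572

open Equiv Equiv.Perm MulAction

theorem exists_fixed_emb {W : Type*} [Fintype W] [DecidableEq W] (σ : Perm W) {r : ℕ}
    (h : σ.support.card + r ≤ Fintype.card W) : ∃ d : Fin r ↪ W, ∀ i, σ (d i) = d i := by
  have h1 : Fintype.card (Fin r) ≤ Fintype.card {x // x ∈ σ.supportᶜ} := by
    rw [Fintype.card_fin, Fintype.card_coe, Finset.card_compl]
    omega
  obtain ⟨f⟩ := Function.Embedding.nonempty_of_card_le h1
  refine ⟨f.trans (Function.Embedding.subtype _), fun i => ?_⟩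
  have := (f i).2
  rw [Finset.mem_compl, notMem_support] at this
  exact this

end Cfsg.Agent.Lib.Helper63.H572
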