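import Mathlib
import Cfsg.Agent.S0713
import Cfsg.Agent.Lib.Helper63.H572.CNT
import Cfsg.Agent.Lib.Helper63.H572.PTYPE

set_option autoImplicit false

namespace Cfsg.Agent.Lib.Helper63.H572

open Equiv Equiv.Perm MulAction

theorem case_k1 {α : Type*} [Fintype α] [DecidableEq α] (G : Subgroup (Perm α)) {p r : ℕ}
    (hp : p.Prime) (hα : Fintype.card α = p + r) (hr : 3 ≤ r)
    (hG : IsMultiplyPretransitive G α (r + 1)) : alternatingGroup α ≤ G := by
  classical
  have := Fact.mk hp
  have hp2 := hp.two_le
  have hn : r + 1 ≤ Fintype.card α := by rw [hα]; omega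
  obtain ⟨e⟩ : Nonempty (Fin r ↪ α) :=
    Function.Embedding.nonempty_of_card_le (by rw [Fintype.card_fin]; omega)
  obtain ⟨e'⟩ : Nonempty (Fin (r + 1) ↪ α) :=
    Function.Embedding.nonempty_of_card_le (by rw [Fintype.card_fin]; omega)
  have hcnt := card_stab_succ G hG hn e e'
  have hnr : Fintype.card α - r = p := by omega
  rw [hnr] at hcnt
  obtain ⟨z0, hz0⟩ := exists_prime_orderOf_dvd_card' (G := stabilizer G e) p (by
    rw [hcnt]; exact dvd_mul_right _ _)
  have hstab : ∀ (h : stabilizer G e) (i : Fin r), ((h : G) : Perm α) (e i) = e i := by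
    intro h i
    have h2 := congrArg (fun f : Fin r ↪ α => f i) (mem_stabilizer_iff.mp h.2)
    exact h2
  have hzord : orderOf (((z0 : G) : Perm α)) = p := by
    rw [Subgroup.orderOf_coe, Subgroup.orderOf_coe, hz0]
  have hsupp := ptype_support ((z0 : G) : Perm α) e (hstab z0)
  have hcyc : (((z0 : G) : Perm α)).IsCycle := by
    apply Equiv.Perm.isCycle_of_prime_order
    · rw [hzord]; exact hp
    · rw [hzord]; omega
  have h2t : IsMultiplyPretransitive G α 2 :=
    isMultiplyPretransitive_of_le (n := r + 1) (by omega)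
      (by rw [Nat.card_eq_fintype_card]; exact_mod_cast hn)
  have hprim : IsPreprimitive G α := isPreprimitive_of_is_two_pretransitive h2t
  exact Cfsg.Agent.S0713.result G hprim hp (by omega) (by omega) hcyc
    (by rw [← hcyc.orderOf, hzord]) (z0 : G).2

end Cfsg.Agent.Lib.Helper63.H572
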