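import Mathlib
import Cfsg.Agent.Lib.Helper63.H572.SW

set_option autoImplicit false

namespace Cfsg.Agent.Lib.Helper63.H572

open Equiv Equiv.Perm MulAction

theorem small_support {α : Type*} [Fintype α] [DecidableEq α] (G : Subgroup (Perm α)) {m : ℕ}
    (hm : IsMultiplyPretransitive G α m) (hmn : m ≤ Fintype.card α) (w : Perm α) (hw : w ∈ G)
    (hw1 : w ≠ 1) (hsupp : w.support.card ≤ m) (hlt : w.support.card < Fintype.card α) :
    ∃ c ∈ G, c.IsThreeCycle := by
  obtain ⟨s, hs⟩ : ∃ s, w s ≠ s := by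
    by_contra h
    push Not at h
    exact hw1 (Equiv.Perm.ext h)
  obtain ⟨t, ht⟩ : ∃ t, w t = t := by
    by_contra h
    push Not at h
    have : w.support = Finset.univ := by
      ext x; simp [h x]
    rw [this, Finset.card_univ] at hlt
    exact lt_irrefl _ hlt
  have hst : s ≠ t := by rintro rfl; exact hs ht
  have hn : IsMultiplyPretransitive G α w.support.card :=
    isMultiplyPretransitive_of_le (n := m) hsupp
      (by rw [Nat.card_eq_fintype_card]; exact_mod_cast hmn)
  let a : Fin w.support.card ↪ α :=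
    (w.support.equivFin.symm.toEmbedding).trans (Function.Embedding.subtype _)
  let b : Fin w.support.card ↪ α := a.trans (swap s t).toEmbedding
  obtain ⟨g, hg⟩ := hn.exists_smul_eq a b
  have hg' : ∀ i, (g : Perm α) (a i) = swap s t (a i) := by
    intro i
    have := DFunLike.congr_fun hg i
    exact this
  have ha : ∀ x, w x ≠ x → ∃ i, a i = x := by
    intro x hx
    refine ⟨w.support.equivFin ⟨x, Equiv.Perm.mem_support.2 hx⟩, ?_⟩
    simp [a]
  refine ⟨(g : Perm α) * w * (g : Perm α)⁻¹ * w⁻¹, ?_, ?_⟩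
  · exact G.mul_mem (G.mul_mem (G.mul_mem g.2 hw) (G.inv_mem g.2)) (G.inv_mem hw)
  · apply swap_conj_three w g s t hs ht
    · intro x hx hxs
      obtain ⟨i, rfl⟩ := ha x hx
      rw [hg', swap_apply_of_ne_of_ne hxs]
      rintro h
      rw [h] at hx
      exact hx ht
    · obtain ⟨i, hi⟩ := ha s hs
      rw [← hi, hg', hi, swap_apply_left]

end Cfsg.Agent.Lib.Helper63.H572
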