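import Mathlib
import Cfsg.Agent.S0713
import Cfsg.Agent.Lib.Helper10.Sharp6
import Cfsg.Agent.Lib.Helper63.H572.SMALL
import Cfsg.Agent.Lib.Helper63.H572.PTYPE

set_option autoImplicit false

namespace Cfsg.Agent.Lib.Helper63.H572

open Equiv Equiv.Perm MulAction

theorem near5 {α : Type*} [Fintype α] [DecidableEq α] (G : Subgroup (Perm α)) {t : ℕ}
    (ht : 4 ≤ t) (hα : Fintype.card α = t + 5) (hG : IsMultiplyPretransitive G α t) :
    alternatingGroup α ≤ G := by
  classical
  have hne : Nonempty (Fin t ↪ α) :=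
    Function.Embedding.nonempty_of_card_le (by rw [Fintype.card_fin]; omega)
  have hcard : Nat.card α = t + 5 := by rw [Nat.card_eq_fintype_card, hα]
  have h2t : IsMultiplyPretransitive G α 2 :=
    isMultiplyPretransitive_of_le (n := t) (by omega)
      (by rw [Nat.card_eq_fintype_card]; exact_mod_cast (by omega : t ≤ Fintype.card α))
  have hprim : IsPreprimitive G α := isPreprimitive_of_is_two_pretransitive h2t
  by_cases hsharp : ∀ x : Fin t ↪ α, stabilizer G x = ⊥
  · exfalso
    rcases (by omega : t = 4 ∨ t = 5 ∨ 6 ≤ t) with rfl | rfl | h6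
    · have := (Cfsg.Agent.Lib.Helper10.sharp4_degree hG hsharp hne).2
      omega
    · have := Cfsg.Agent.Lib.Helper10.sharp5_degree hG hsharp hne
      omega
    · have := Cfsg.Agent.Lib.Helper10.sharpk_degree t h6 G α hG hsharp hne
      omega
  push Not at hsharp
  obtain ⟨x, hx⟩ := hsharp
  have hc1 : Nat.card (stabilizer G x) ≠ 1 := by
    intro h; exact hx (Subgroup.card_eq_one.1 h)
  obtain ⟨l, hl, hldvd⟩ := Nat.exists_prime_and_dvd hc1
  have := Fact.mk hl
  obtain ⟨w0, hw0⟩ := exists_prime_orderOf_dvd_card' (G := stabilizer G x) l hldvd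
  have hstab : ∀ (h : stabilizer G x) (i : Fin t), ((h : G) : Perm α) (x i) = x i := by
    intro h i
    have h2 := congrArg (fun f : Fin t ↪ α => f i) (mem_stabilizer_iff.mp h.2)
    exact h2
  have hword : orderOf (((w0 : G) : Perm α)) = l := by
    rw [Subgroup.orderOf_coe, Subgroup.orderOf_coe, hw0]
  have hsupp := ptype_support ((w0 : G) : Perm α) x (hstab w0)
  have hw1 : ((w0 : G) : Perm α) ≠ 1 := by
    intro h
    rw [h, orderOf_one] at hword
    exact hl.one_lt.ne hword
  by_cases h4 : (((w0 : G) : Perm α)).support.card ≤ 4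
  · obtain ⟨c, hcG, hc⟩ := small_support G hG (by omega) _ (w0 : G).2 hw1 (by omega) (by omega)
    exact alternatingGroup_le_of_isPreprimitive_of_isThreeCycle_mem hprim hc hcG
  · have h5 : (((w0 : G) : Perm α)).support.card = 5 := by omega
    obtain ⟨n, hn⟩ := cycleType_prime_order (σ := ((w0 : G) : Perm α)) (by rw [hword]; exact hl)
    rw [hword] at hn
    have h1 := (((w0 : G) : Perm α)).sum_cycleType
    rw [hn, Multiset.sum_replicate, smul_eq_mul, h5] at h1
    have hl5 : l = 5 := (Nat.prime_dvd_prime_iff_eq hl (by norm_num)).1 ⟨n + 1, by rw [← h1]; ring⟩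
    have hcyc : (((w0 : G) : Perm α)).IsCycle := by
      apply Equiv.Perm.isCycle_of_prime_order
      · rw [hword]; exact hl
      · rw [hword]; omega
    exact Cfsg.Agent.S0713.result G hprim (p := 5) (by norm_num) (by omega) (by omega) hcyc h5
      (w0 : G).2

end Cfsg.Agent.Lib.Helper63.H572
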