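import Mathlib
import Cfsg.Agent.Lib.Helper63.H572.SMALL
import Cfsg.Agent.Lib.Helper63.H572.NEAR
import Cfsg.Agent.Lib.Helper63.H572.K1
import Cfsg.Agent.Lib.Helper63.H572.CA1
import Cfsg.Agent.Lib.Helper63.H572.CA2
import Cfsg.Agent.Lib.Helper63.H572.CA3
import Cfsg.Agent.Lib.Helper63.H572.CA4
import Cfsg.Agent.Lib.Helper63.H572.CA5
import Cfsg.Agent.Lib.Helper63.H572.CB1
import Cfsg.Agent.Lib.Helper63.H572.CB1b
import Cfsg.Agent.Lib.Helper63.H572.CB2
import Cfsg.Agent.Lib.Helper63.H572.CB3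
import Cfsg.Agent.Lib.Helper63.H572.CB4
import Cfsg.Agent.Lib.Helper63.H572.CB5
import Cfsg.Agent.Lib.Helper63.H572.CB6a
import Cfsg.Agent.Lib.Helper63.H572.CB6b
import Cfsg.Agent.Lib.Helper63.H572.CB7
import Cfsg.Agent.Lib.Helper63.H572.PTYPE
import Cfsg.Agent.Lib.Helper63.H572.CNT
import Cfsg.Agent.Lib.Helper63.H572.SW

set_option autoImplicit false

namespace Cfsg.Agent.Lib.Helper63.H572

open Equiv Equiv.Perm MulAction

theorem alt_le_of_small {α : Type*} [Fintype α] [DecidableEq α] (G : Subgroup (Perm α)) {m : ℕ}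
    (h2 : 2 ≤ m) (hm : IsMultiplyPretransitive G α m) (hmn : m ≤ Fintype.card α) (w : Perm α)
    (hw : w ∈ G) (hw1 : w ≠ 1) (hsupp : w.support.card ≤ m)
    (hlt : w.support.card < Fintype.card α) : alternatingGroup α ≤ G := by
  obtain ⟨c, hcG, hc⟩ := small_support G hm hmn w hw hw1 hsupp hlt
  have h2t : IsMultiplyPretransitive G α 2 :=
    isMultiplyPretransitive_of_le (n := m) h2 (by rw [Nat.card_eq_fintype_card]; exact hmn)
  have hprim : IsPreprimitive G α := isPreprimitive_of_is_two_pretransitive h2t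
  exact alternatingGroup_le_of_isPreprimitive_of_isThreeCycle_mem hprim hc hcG

theorem caseA {α : Type*} [Fintype α] [DecidableEq α] (G : Subgroup (Perm α)) {k p r : ℕ}
    (hp : p.Prime) (hp5 : 5 ≤ p) (hα : Fintype.card α = k * p + r) (hk : 2 ≤ k) (hkp : k < p)
    (hkr : k < r) (hG : IsMultiplyPretransitive G α (r + 1))
    (hA : ∀ e' : Fin (r + 1) ↪ α, ¬ p ∣ Nat.card (stabilizer G e')) :
    alternatingGroup α ≤ G := by
  have hkp0 : 0 < k * p := Nat.mul_pos (by omega) hp.pos
  have hne : Nonempty (Fin r ↪ α) := by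
    rw [Function.Embedding.nonempty_iff_card_le, Fintype.card_fin, hα]; omega
  obtain ⟨e⟩ := hne
  obtain ⟨z, hzG, hzo, hzfix, hN⟩ := caseA1 G hp hα (by omega) hkp hG hA e
  have hC := caseA2 G z e hN
  -- cycle type of z
  have hzs : z.support.card = k * p := by
    have h1 : z.supportᶜ = Finset.univ.map e := by
      ext x
      rw [Finset.mem_compl, notMem_support, hzfix x]
      simp
    have h2 := Finset.card_compl z.support
    rw [h1, Finset.card_map, Finset.card_univ, Fintype.card_fin, hα] at h2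
    have h3 : z.support.card ≤ Fintype.card α := Finset.card_le_univ _
    omega
  have hzct : Multiset.card z.cycleType = k := by
    obtain ⟨n, hn⟩ := cycleType_prime_order (σ := z) (by rw [hzo]; exact hp)
    rw [hzo] at hn
    have h1 := z.sum_cycleType
    rw [hn, Multiset.sum_replicate, smul_eq_mul, hzs] at h1
    rw [hn, Multiset.card_replicate]
    exact Nat.eq_of_mul_eq_mul_right hp.pos h1
  obtain ⟨c, hcG, hcz, hcs, τ, hτ, hcτ⟩ := caseA3 G hkr hk z hzct e hC
  obtain ⟨c', hc'G, hc'z, hc's, τ', hτ', hc'τ⟩ :=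
    caseA5 G hp hp5 (by omega) z e hN c hcG hcz hcs τ hτ hcτ
  have hpow : ∀ n : ℕ, ∀ i, (c' ^ n) (e i) = e ((τ' ^ n) i) := by
    intro n
    induction n with
    | zero => intro i; simp
    | succ n ih =>
      intro i
      rw [pow_succ', Perm.mul_apply, ih, hc'τ, pow_succ', Perm.mul_apply]
  have hw1 : c' ^ p ≠ 1 := by
    intro h
    apply hτ'
    ext i
    have := hpow p i
    rw [h, Perm.one_apply] at this
    have := e.injective this
    rw [← this, Perm.one_apply]
  have hsub : (c' ^ p).support ⊆ Finset.univ.map e := by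
    intro x hx
    rw [mem_support] at hx
    by_contra hx'
    apply hx
    have hzx : z x ≠ x := by
      intro h
      apply hx'
      have := (hzfix x).1 h
      simpa using this
    have := caseA4 z c' hc'z x (hc's x hzx)
    rwa [hzo] at this
  have hcard : (c' ^ p).support.card ≤ r := by
    have := Finset.card_le_card hsub
    rwa [Finset.card_map, Finset.card_univ, Fintype.card_fin] at this
  exact alt_le_of_small G (m := r + 1) (by omega) hG (by rw [hα]; omega) (c' ^ p)
    (G.pow_mem hc'G p) hw1 (by omega) (by rw [hα]; omega)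

universe u

theorem caseB {α : Type u} [Fintype α] [DecidableEq α] (G : Subgroup (Perm α)) {k p r : ℕ}
    (hp : p.Prime) (hp5 : 5 ≤ p) (hα : Fintype.card α = k * p + r) (hkp : k < p)
    (hr : 3 ≤ r) (hG : IsMultiplyPretransitive G α (r + 1)) (e' : Fin (r + 1) ↪ α)
    (hB : p ∣ Nat.card (stabilizer G e'))
    (IH : ∀ j, 1 ≤ j → j < k → ∀ (W : Type u) [Fintype W] [DecidableEq W] (Y : Subgroup (Perm W)),
      Fintype.card W = j * p + r → IsMultiplyPretransitive Y W (r + 1) →
      alternatingGroup W ≤ Y) :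
    alternatingGroup α ≤ G := by
  obtain ⟨U, hUG, hU, hU1, hUfix, hW⟩ := caseB1 G hp hG e' hB
  obtain ⟨j, hj1, hjk, hcardW⟩ := caseB1b hp hα U hU hU1 e' hUfix
  obtain ⟨Y, hY, hYt⟩ := caseB2 G U hW
  have : Fintype (fixedPoints U α) := Fintype.ofFinite _
  have hcW : Fintype.card (fixedPoints U α) = j * p + r := by
    rw [← Nat.card_eq_fintype_card, hcardW]
  have hjp : p ≤ j * p := Nat.le_mul_of_pos_left p (by omega)
  have hYalt := IH j hj1 hjk (fixedPoints U α) Y hcW hYt
  obtain ⟨σ, ρ, hσA, hρA, hσc, hσs, h3⟩ := caseB3 (W := fixedPoints U α) hp hp5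
    (by rw [hcW]; omega)
  obtain ⟨x0, hx0G, hx0N, hx0⟩ := hY σ (hYalt hσA)
  obtain ⟨g, hgG, hgN, hg⟩ := hY ρ (hYalt hρA)
  obtain ⟨n, a, hn, hna⟩ := p_part x0 hp
  have hσp : σ ^ p = 1 := by
    rw [← hσs, ← hσc.orderOf]; exact pow_orderOf_eq_one σ
  have hσn : σ ^ n = σ := by
    conv_lhs => rw [← Nat.div_add_mod n p, hn, pow_add, pow_mul, hσp, one_pow, one_mul, pow_one]
  have hpow : ∀ (q : Perm α) (θ : Perm (fixedPoints U α)),
      (∀ w : fixedPoints U α, q (w : α) = (θ w : α)) → ∀ m : ℕ,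
      ∀ w : fixedPoints U α, (q ^ m) (w : α) = ((θ ^ m) w : α) := by
    intro q θ h m
    induction m with
    | zero => intro w; simp
    | succ m ih =>
      intro w
      rw [pow_succ', Perm.mul_apply, ih, h, pow_succ', Perm.mul_apply]
  have hinv : ∀ (q : Perm α) (θ : Perm (fixedPoints U α)),
      (∀ w : fixedPoints U α, q (w : α) = (θ w : α)) →
      ∀ w : fixedPoints U α, q⁻¹ (w : α) = ((θ⁻¹) w : α) := by
    intro q θ h w
    rw [Perm.inv_eq_iff_eq, h]
    simp
  have hx : ∀ w : fixedPoints U α, (x0 ^ n) (w : α) = (σ w : α) := by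
    intro w
    rw [hpow x0 σ hx0 n w, hσn]
  have hxN : x0 ^ n ∈ Subgroup.normalizer (U : Set (Perm α)) := Subgroup.pow_mem _ hx0N n
  obtain ⟨d, hd⟩ := exists_fixed_emb σ (r := r) (by rw [hσs, hcW]; omega)
  let d' : Fin r ↪ α := d.trans (Function.Embedding.subtype _)
  have hd'U : ∀ u ∈ U, ∀ i, u (d' i) = d' i := by
    intro u hu i
    have := (d i).2
    rw [mem_fixedPoints] at this
    exact this ⟨u, hu⟩
  have hd'x : ∀ i, (x0 ^ n) (d' i) = d' i := by
    intro i
    change (x0 ^ n) ((d i : fixedPoints U α) : α) = _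
    rw [hx (d i), hd i]
    rfl
  have hy : ∀ w : fixedPoints U α, (g * x0 ^ n * g⁻¹ * (x0 ^ n)⁻¹) (w : α)
      = ((ρ * σ * ρ⁻¹ * σ⁻¹) w : α) := by
    intro w
    simp only [Perm.mul_apply]
    rw [hinv _ σ hx w, hinv _ ρ hg, hx, hg]
  have hout : ∀ o, (∃ v ∈ U, v o ≠ o) → ((g * x0 ^ n * g⁻¹ * (x0 ^ n)⁻¹) ^ p) o = o := by
    intro o ho
    exact caseB6a hp hα hkp U hU (x0 ^ n) g ⟨a, hna⟩ hxN hgN d' hd'U hd'x o ho
  have hp3 : ¬ 3 ∣ p := by
    intro h
    have := (Nat.prime_dvd_prime_iff_eq Nat.prime_three hp).1 h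
    omega
  obtain ⟨hw1, hws⟩ := caseB6b U _ _ hy h3 hp3 hout
  have hkp0 : 0 < k * p := Nat.mul_pos (by omega) hp.pos
  have hwG : (g * x0 ^ n * g⁻¹ * (x0 ^ n)⁻¹) ^ p ∈ G :=
    G.pow_mem (G.mul_mem (G.mul_mem (G.mul_mem hgG (G.pow_mem hx0G n)) (G.inv_mem hgG))
      (G.inv_mem (G.pow_mem hx0G n))) p
  exact alt_le_of_small G (m := r + 1) (by omega) hG (by rw [hα]; omega) _ hwG hw1 (by omega)
    (by rw [hα]; omega)

theorem main (k : ℕ) : ∀ (α : Type u) [Fintype α] [DecidableEq α] (G : Subgroup (Perm α))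
    (p r : ℕ), p.Prime → Fintype.card α = k * p + r → 1 ≤ k → k < p → k < r → 3 ≤ r →
    IsMultiplyPretransitive G α (r + 1) → alternatingGroup α ≤ G := by
  induction k using Nat.strong_induction_on with
  | _ k ih =>
    intro α _ _ G p r hp hα hk hkp hkr hr hG
    rcases Nat.lt_or_ge k 2 with hk1 | hk2
    · have : k = 1 := by omega
      subst this
      exact case_k1 G hp (by rw [hα, one_mul]) hr hG
    rcases Nat.lt_or_ge p 5 with hp5 | hp5
    · have hp3 : p = 3 := by
        have : p = 3 ∨ p = 4 := by omega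
        rcases this with h | h
        · exact h
        · subst h; exact absurd hp (by norm_num)
      subst hp3
      have : k = 2 := by omega
      subst this
      exact near5 G (t := r + 1) (by omega) (by rw [hα]; omega) hG
    by_cases hB : ∃ e' : Fin (r + 1) ↪ α, p ∣ Nat.card (stabilizer G e')
    · obtain ⟨e', he'⟩ := hB
      refine caseB G hp hp5 hα hkp hr hG e' he' ?_
      intro j hj1 hjk W _ _ Y hW hY
      exact ih j hjk W Y p r hp hW hj1 (by omega) (by omega) hr hY
    · push Not at hB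
      exact caseA G hp hp5 hα hk2 hkp hkr hG hB

end Cfsg.Agent.Lib.Helper63.H572
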